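import Cfsg.Agent.Chars.Basic
import Mathlib.LinearAlgebra.PID
import Mathlib.GroupTheory.Subgroup.Centralizer

/-!
# Eigencharacters of an abelian subgroup

For a commutative subgroup `P` and a subgroup `V` commuting with it, the coefficient of an
irreducible character `μ` of `P` in `x ↦ ψ (x * v)` is a character of `V`.
-/

set_option autoImplicit false

namespace CfsgLib.SmallDegreeTI

open Cfsg CfsgLib.Chars
open scoped ComplexConjugate

variable {G : Type*} [Group G] [Fintype G] (P : Subgroup G) [Fintype P]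

theorem norm_sq_sum_eq {H : Type*} [Group H] [Fintype H] (f : H → ℂ) :
    ((∑ g : H, ‖f g‖ ^ 2 : ℝ) : ℂ) = (Nat.card H : ℂ) * classInner f f := by
  rw [classInner, ← mul_assoc, mul_inv_cancel₀ natCard_ne_zero, one_mul, Complex.ofReal_sum]
  exact Finset.sum_congr rfl fun g _ => by
    rw [Complex.mul_conj, Complex.normSq_eq_norm_sq]

/-- The `μ`-coefficient of `x ↦ ψ (x * g)` on `P`. -/
noncomputable def eig (ψ : G → ℂ) (μ : IrrCharacter P) (g : G) : ℂ :=
  classInner (fun x : P => ψ (x * g)) (μ : P → ℂ)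

theorem eig_def (ψ : G → ℂ) (μ : IrrCharacter P) (g : G) :
    eig P ψ μ g = classInner (fun x : P => ψ (x * g)) (μ : P → ℂ) := rfl

theorem eig_one (ψ : G → ℂ) (μ : IrrCharacter P) :
    eig P ψ μ 1 = classInner (fun x : P => ψ x) (μ : P → ℂ) := by
  simp [eig_def]

variable {P} (hP : ∀ a ∈ P, ∀ b ∈ P, a * b = b * a)

include hP in
theorem isClassFunction_any (f : P → ℂ) : IsClassFunction P f := fun a b => by
  congr 1
  apply Subtype.ext
  simp [hP _ b.2 _ a.2]

include hP in
theorem isMulComm : IsMulCommutative P :=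
  ⟨⟨fun a b => Subtype.ext (hP _ a.2 _ b.2)⟩⟩

include hP in
theorem linear_one (μ : IrrCharacter P) : (μ : P → ℂ) 1 = 1 :=
  haveI := isMulComm hP
  map_one_eq_one_of_isMulCommutative μ

include hP in
theorem exists_hom (μ : IrrCharacter P) : ∃ l : P →* ℂˣ, linChar l = μ :=
  exists_linChar_eq μ (linear_one hP μ)

include hP in
theorem eig_expansion (ψ : G → ℂ) (g : G) (x : P) :
    ψ (x * g) = ∑ μ : IrrCharacter P, eig P ψ μ g * (μ : P → ℂ) x :=
  eq_sum_classInner_mul (f := fun x : P => ψ (x * g)) (isClassFunction_any hP _) x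

include hP in
theorem eig_expansion_one (ψ : G → ℂ) (g : G) :
    ψ g = ∑ μ : IrrCharacter P, eig P ψ μ g := by
  have h := eig_expansion hP ψ g 1
  simpa [linear_one hP] using h

include hP in
theorem eig_parseval (ψ : G → ℂ) (g : G) :
    ∑ x : P, ‖ψ (x * g)‖ ^ 2 = (Nat.card P : ℝ) * ∑ μ : IrrCharacter P, ‖eig P ψ μ g‖ ^ 2 := by
  apply Complex.ofReal_injective
  rw [norm_sq_sum_eq (fun x : P => ψ (x * g)),
    classInner_eq_sum (isClassFunction_any hP _), Complex.ofReal_mul, Complex.ofReal_natCast,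
    Complex.ofReal_sum]
  congr 1
  exact Finset.sum_congr rfl fun μ _ => by
    rw [Complex.mul_conj, Complex.normSq_eq_norm_sq]; rfl

variable (V : Subgroup G) [Fintype V] (hV : ∀ v ∈ V, ∀ a ∈ P, v * a = a * v)

include hP hV in
theorem isCharacter_eig {ψ : G → ℂ} (hψ : IsCharacter G ψ) (μ : IrrCharacter P) :
    IsCharacter V (fun v : V => eig P ψ μ (v : G)) := by
  obtain ⟨n, ρ, rfl⟩ := hψ
  obtain ⟨l, rfl⟩ := exists_hom hP μ
  have hll : ∀ x : P, conj ((l x : ℂˣ) : ℂ) * ((l x : ℂˣ) : ℂ) = 1 := by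
    intro x
    have h := map_inv_eq_conj (isCharacter_coe (linChar l)) x
    simp only [linChar_apply, map_inv] at h
    rw [← h, ← Units.val_mul, inv_mul_cancel, Units.val_one]
  let W : Submodule ℂ (Fin n → ℂ) :=
    { carrier := {w | ∀ x : P, ρ x w = ((l x : ℂˣ) : ℂ) • w}
      zero_mem' := fun x => by simp
      add_mem' := fun {a b} ha hb x => by rw [map_add, ha x, hb x, smul_add]
      smul_mem' := fun c a ha x => by rw [map_smul, ha x, smul_comm] }
  have hvW : ∀ v : V, ∀ w ∈ W, ρ (v : G) w ∈ W := by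
    intro v w hw x
    rw [← Module.End.mul_apply, ← map_mul, ← hV _ v.2 _ x.2, map_mul, Module.End.mul_apply,
      hw x, map_smul]
  let σ : Representation ℂ V W :=
    { toFun := fun v => (ρ (v : G)).restrict (hvW v)
      map_one' := LinearMap.ext fun w => Subtype.ext (by simp)
      map_mul' := fun a b => LinearMap.ext fun w => Subtype.ext (by simp) }
  let E : Module.End ℂ (Fin n → ℂ) :=
    (Nat.card P : ℂ)⁻¹ • ∑ x : P, conj ((l x : ℂˣ) : ℂ) • ρ (x : G)
  have hEW : ∀ w, E w ∈ W := by
    intro w y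
    simp only [E, LinearMap.smul_apply, LinearMap.sum_apply, map_smul, map_sum, Finset.smul_sum]
    refine Fintype.sum_equiv (Equiv.mulLeft y) _ _ fun x => ?_
    rw [← Module.End.mul_apply, ← map_mul, smul_smul, smul_smul, smul_smul]
    simp only [Equiv.coe_mulLeft, Subgroup.coe_mul, map_mul, Units.val_mul, Module.End.mul_apply]
    congr 1
    have := hll y
    linear_combination (-(Nat.card P : ℂ)⁻¹ * conj ((l x : ℂˣ) : ℂ)) * this
  have hEfix : ∀ w ∈ W, E w = w := by
    intro w hw
    simp only [E, LinearMap.smul_apply, LinearMap.sum_apply]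
    rw [Finset.sum_congr rfl (fun x _ => by rw [hw x, smul_smul, hll, one_smul]),
      Finset.sum_const, Finset.card_univ, ← Nat.card_eq_fintype_card, ← Nat.cast_smul_eq_nsmul ℂ,
      smul_smul, inv_mul_cancel₀ natCard_ne_zero, one_smul]
  have key : σ.character = fun v : V => eig P ρ.character (linChar l) (v : G) := by
    funext v
    have hf : ∀ w, (ρ (v : G) * E) w ∈ W := fun w => hvW v _ (hEW w)
    have e : σ v = (ρ (v : G) * E).restrict (fun w _ => hf w) :=
      LinearMap.ext fun w => Subtype.ext (by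
        show ρ (v : G) w = ρ (v : G) (E w)
        rw [hEfix _ w.2])
    rw [Representation.character, e, LinearMap.trace_restrict_eq_of_forall_mem W _ hf, eig_def,
      classInner]
    simp only [E, mul_smul_comm, Finset.mul_sum, map_smul, map_sum, smul_eq_mul,
      Representation.character, linChar_apply, map_mul]
    refine Finset.sum_congr rfl fun x _ => ?_
    rw [LinearMap.trace_mul_comm, mul_comm (LinearMap.trace ℂ _ _)]
  rw [← key]
  exact isCharacter_character σ

/-- The multiplicity of `μ` in `ψ` restricted to `P` is a natural number. -/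
theorem exists_nat_mult {ψ : G → ℂ} (hψ : IsCharacter G ψ) (μ : IrrCharacter P) :
    ∃ m : ℕ, eig P ψ μ 1 = m := by
  rw [eig_one]
  exact exists_nat_classInner (isCharacter_restrict hψ P) μ

include hP hV in
theorem eig_eq_zero {ψ : G → ℂ} (hψ : IsCharacter G ψ) (μ : IrrCharacter P)
    (h : eig P ψ μ 1 = 0) {v : G} (hv : v ∈ V) : eig P ψ μ v = 0 :=
  congrFun (eq_zero_of_map_one_eq_zero (isCharacter_eig hP V hV hψ μ) (by simpa using h)) ⟨v, hv⟩

include hP hV in
theorem card_le_sum_norm_eig {ψ : G → ℂ} (hψ : IsCharacter G ψ) (μ : IrrCharacter P)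
    (h : eig P ψ μ 1 ≠ 0) :
    (Nat.card V : ℝ) ≤ ∑ v : V, ‖eig P ψ μ (v : G)‖ ^ 2 := by
  obtain ⟨k, hk⟩ := exists_nat_classInner' (isCharacter_eig hP V hV hψ μ)
    (isCharacter_eig hP V hV hψ μ)
  have e : ∑ v : V, ‖eig P ψ μ (v : G)‖ ^ 2 = (Nat.card V : ℝ) * k := by
    apply Complex.ofReal_injective
    rw [norm_sq_sum_eq (fun v : V => eig P ψ μ (v : G)), hk, Complex.ofReal_mul,
      Complex.ofReal_natCast, Complex.ofReal_natCast]
  rw [e]
  rcases Nat.eq_zero_or_pos k with h0 | h0
  · exfalso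
    rw [h0, Nat.cast_zero, mul_zero, Finset.sum_eq_zero_iff_of_nonneg (fun v _ => sq_nonneg _)] at e
    have := e 1 (Finset.mem_univ _)
    rw [sq_eq_zero_iff, norm_eq_zero] at this
    exact h (by simpa using this)
  · exact le_mul_of_one_le_right (Nat.cast_nonneg _) (by exact_mod_cast h0)

include hP in
theorem eig_oneChar (ψ : G → ℂ) (g : G) :
    eig P ψ (oneChar P) g = (Nat.card P : ℂ)⁻¹ * ∑ x : P, ψ (x * g) := by
  simp [eig_def, classInner]

include hP hV in
/-- If `ψ` is not orthogonal to the trivial character on `P × V`, then the trivial coefficient has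
mean at least one on `V`. -/
theorem card_le_re_sum_eig {ψ : G → ℂ} (hψ : IsCharacter G ψ)
    (h : ∑ v : V, ∑ x : P, ψ (x * v) ≠ 0) :
    (Nat.card V : ℝ) ≤ (∑ v : V, eig P ψ (oneChar P) (v : G)).re := by
  obtain ⟨k, hk⟩ := exists_nat_classInner (isCharacter_eig hP V hV hψ (oneChar P)) (oneChar V)
  have e : ∑ v : V, eig P ψ (oneChar P) (v : G) = (Nat.card V : ℂ) * k := by
    rw [← hk, classInner, ← mul_assoc, mul_inv_cancel₀ natCard_ne_zero, one_mul]
    exact Finset.sum_congr rfl fun v _ => by simp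
  have hk0 : k ≠ 0 := by
    intro h0
    rw [h0, Nat.cast_zero, mul_zero] at e
    simp only [eig_oneChar hP, ← Finset.mul_sum] at e
    exact h ((mul_eq_zero.1 e).resolve_left (inv_ne_zero natCard_ne_zero))
  rw [e, Complex.mul_re, Complex.natCast_re, Complex.natCast_re, Complex.natCast_im,
    Complex.natCast_im, mul_zero, sub_zero]
  exact le_mul_of_one_le_right (Nat.cast_nonneg _) (by exact_mod_cast Nat.one_le_iff_ne_zero.2 hk0)

end CfsgLib.SmallDegreeTI
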