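import Cfsg.Agent.Chars.SmallDegreeTI.Eigen
import Mathlib.GroupTheory.GroupAction.Quotient
import Mathlib.Data.Nat.ModEq
import Mathlib.Algebra.Order.Chebyshev

/-!
# Small degrees when the centralizers of the elements of an abelian TI subgroup are uniform

If every non-identity element of the commutative subgroup `P` has the centralizer `P × V` of `P`,
no proper normal subgroup contains `P`, and a non-principal irreducible character has degree `d`
with `d ^ 2 + 1 < |P|`, then `d = 1` and `N(P) = C(P)`.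
-/

set_option autoImplicit false

namespace CfsgLib.SmallDegreeTI

open Cfsg CfsgLib.Chars
open scoped ComplexConjugate

/-- Uniform centralizers, with the complement `V` of `P` in its centralizer. -/
structure Setting {G : Type*} [Group G] (P V : Subgroup G) : Prop where
  comm : ∀ a ∈ P, ∀ b ∈ P, a * b = b * a
  star : ∀ x ∈ P, x ≠ 1 → Subgroup.centralizer ({x} : Set G) = Subgroup.centralizer (P : Set G)
  commV : ∀ v ∈ V, ∀ a ∈ P, v * a = a * v
  coprime : (Nat.card P).Coprime (Nat.card V)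
  cardC : Nat.card (Subgroup.centralizer (P : Set G)) = Nat.card P * Nat.card V

variable {G : Type*} [Group G] [Fintype G] {P V : Subgroup G} [Fintype P] [Fintype V]

theorem Setting.mem_centralizer (S : Setting P V) (x : P) (v : V) :
    (x : G) * v ∈ Subgroup.centralizer (P : Set G) := by
  refine mul_mem ?_ ?_
  · exact Subgroup.mem_centralizer_iff.2 fun a ha => S.comm a ha _ x.2
  · exact Subgroup.mem_centralizer_iff.2 fun a ha => (S.commV _ v.2 a ha).symm

theorem Setting.mul_eq_one (S : Setting P V) {x v : G} (hx : x ∈ P) (hv : v ∈ V) (h : x * v = 1) :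
    x = 1 := by
  have e : x = v⁻¹ := eq_inv_of_mul_eq_one_left h
  rw [← orderOf_eq_one_iff]
  refine Nat.eq_one_of_dvd_coprimes S.coprime (Subgroup.orderOf_dvd_natCard _ hx) ?_
  rw [e, orderOf_inv]
  exact Subgroup.orderOf_dvd_natCard _ hv

theorem Setting.mul_injective (S : Setting P V) {x x' : P} {v v' : V}
    (h : (x : G) * v = x' * v') : x = x' ∧ v = v' := by
  have h2 : ((x'⁻¹ * x : P) : G) * ((v * v'⁻¹ : V) : G) = 1 := by
    calc ((x'⁻¹ * x : P) : G) * ((v * v'⁻¹ : V) : G) = (x' : G)⁻¹ * ((x : G) * v) * (v' : G)⁻¹ := by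
          push_cast; group
      _ = 1 := by rw [h]; group
  have h3 := S.mul_eq_one (x'⁻¹ * x : P).2 (v * v'⁻¹ : V).2 h2
  have h4 : x = x' := (inv_mul_eq_one.1 (Subtype.ext h3 : x'⁻¹ * x = 1)).symm
  subst h4
  exact ⟨rfl, Subtype.ext (mul_left_cancel h)⟩

theorem Setting.exists_mul (S : Setting P V) {y : G} (hy : y ∈ Subgroup.centralizer (P : Set G)) :
    ∃ (x : P) (v : V), (x : G) * v = y := by
  let f : P × V → Subgroup.centralizer (P : Set G) := fun q => ⟨_, S.mem_centralizer q.1 q.2⟩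
  have hf : Function.Injective f := fun q r h => by
    obtain ⟨h1, h2⟩ := S.mul_injective (congrArg Subtype.val h)
    exact Prod.ext h1 h2
  have hbij : Function.Bijective f :=
    (Nat.bijective_iff_injective_and_card f).2 ⟨hf, by rw [Nat.card_prod, S.cardC]⟩
  obtain ⟨q, hq⟩ := hbij.2 ⟨y, hy⟩
  exact ⟨q.1, q.2, congrArg Subtype.val hq⟩

theorem Setting.mem_of_pow (S : Setting P V) {y : G} (hy : y ∈ Subgroup.centralizer (P : Set G))
    (h : y ^ Nat.card P = 1) : y ∈ P := by
  obtain ⟨x, v, rfl⟩ := S.exists_mul hy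
  have hc : Commute (x : G) v := (S.commV _ v.2 _ x.2).symm
  rw [hc.mul_pow, show (x : G) ^ Nat.card P = 1 from congrArg Subtype.val (pow_card_eq_one' (x := x)),
    one_mul] at h
  have : orderOf (v : G) = 1 := Nat.eq_one_of_dvd_coprimes S.coprime (orderOf_dvd_of_pow_eq_one h)
    (Subgroup.orderOf_dvd_natCard _ v.2)
  rw [orderOf_eq_one_iff] at this
  rw [this, mul_one]
  exact x.2

theorem mem_normalizer_of_conj_le {a : G} (h : ∀ y ∈ P, a * y * a⁻¹ ∈ P) :
    a ∈ Subgroup.normalizer (P : Set G) := by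
  rw [Subgroup.mem_normalizer_iff]
  intro y
  refine ⟨h y, fun hy => ?_⟩
  let f : P → P := fun z => ⟨a * z * a⁻¹, h z z.2⟩
  have hf : Function.Injective f := fun z w e => Subtype.ext ((MulAut.conj a).injective (congrArg Subtype.val e))
  obtain ⟨z, hz⟩ := (Finite.injective_iff_surjective.1 hf) ⟨_, hy⟩
  have : (z : G) = y := (MulAut.conj a).injective (congrArg Subtype.val hz)
  rw [← this]
  exact z.2

/-- The trivial intersection property, in the form of an injectivity statement. -/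
theorem Setting.conj_eq (S : Setting P V) {a : G} {x x' : P} {v v' : V} (hx : x ≠ 1)
    (h : a * ((x : G) * v) * a⁻¹ = (x' : G) * v') :
    a ∈ Subgroup.normalizer (P : Set G) := by
  obtain ⟨k, hk1, hk0⟩ := Nat.chineseRemainder S.coprime 1 0
  have hxk : ∀ y : P, (y : G) ^ k = y := fun y => by
    have := pow_eq_pow_iff_modEq.2 (hk1.of_dvd (Subgroup.orderOf_dvd_natCard P y.2))
    simpa using this
  have hvk : ∀ y : V, (y : G) ^ k = 1 := fun y => by
    have := pow_eq_pow_iff_modEq.2 (hk0.of_dvd (Subgroup.orderOf_dvd_natCard V y.2))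
    simpa using this
  have e : a * (x : G) * a⁻¹ = (x' : G) := by
    have h2 := congrArg (fun z => z ^ k) h
    simp only [conj_pow, (show Commute (x : G) v from (S.commV _ v.2 _ x.2).symm).mul_pow,
      (show Commute (x' : G) v' from (S.commV _ v'.2 _ x'.2).symm).mul_pow,
      hxk, hvk, mul_one] at h2
    exact h2
  have hx' : (x' : G) ≠ 1 := by
    intro h1
    apply hx
    apply Subtype.ext
    rw [h1] at e
    simpa using e
  have hx0 : (x : G) ≠ 1 := fun h1 => hx (Subtype.ext h1)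
  have hmap : ∀ y ∈ P, a * y * a⁻¹ ∈ P := by
    intro y hy
    apply S.mem_of_pow
    · rw [← S.star _ x'.2 hx', Subgroup.mem_centralizer_singleton_iff, ← e]
      have hyx : y * (x : G) = x * y := S.comm y hy _ x.2
      calc a * y * a⁻¹ * (a * x * a⁻¹) = a * (y * x) * a⁻¹ := by group
        _ = a * (x * y) * a⁻¹ := by rw [hyx]
        _ = a * x * a⁻¹ * (a * y * a⁻¹) := by group
    · rw [conj_pow, show y ^ Nat.card P = 1 from
        congrArg Subtype.val (pow_card_eq_one' (x := (⟨y, hy⟩ : P))), mul_one, mul_inv_cancel]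
  exact mem_normalizer_of_conj_le hmap

/-- The contribution of the conjugates of `P# × V` to the norm of a class function. -/
theorem Setting.ti_sum_le (S : Setting P V) [DecidableEq P] {f : G → ℂ}
    (hf : IsClassFunction G f) :
    ‖f 1‖ ^ 2 + (Subgroup.normalizer (P : Set G)).index *
        (∑ x ∈ (Finset.univ : Finset P).erase 1, ∑ v : V, ‖f (x * v)‖ ^ 2) ≤
      ∑ g : G, ‖f g‖ ^ 2 := by
  classical
  set N := Subgroup.normalizer (P : Set G)
  haveI : Fintype (G ⧸ N) := Fintype.ofFinite _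
  let F : (G ⧸ N) × P × V → G := fun q => q.1.out * ((q.2.1 : G) * q.2.2) * q.1.out⁻¹
  let T : Finset ((G ⧸ N) × P × V) :=
    Finset.univ ×ˢ (((Finset.univ : Finset P).erase 1) ×ˢ Finset.univ)
  have hinj : Set.InjOn F T := by
    rintro ⟨q, x, v⟩ hq ⟨q', x', v'⟩ _ h
    simp only [T, Finset.coe_product, Set.mem_prod, Finset.coe_erase, Set.mem_diff,
      Set.mem_singleton_iff] at hq
    have hx : x ≠ 1 := hq.2.1.2
    simp only [F] at h
    have h' : (q'.out⁻¹ * q.out) * ((x : G) * v) * (q'.out⁻¹ * q.out)⁻¹ = (x' : G) * v' := by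
      have := congrArg (fun z => q'.out⁻¹ * z * q'.out) h
      simpa [mul_assoc] using this
    have ha := S.conj_eq hx h'
    have hqq : q = q' := by
      have : (QuotientGroup.mk q'.out : G ⧸ N) = QuotientGroup.mk q.out := QuotientGroup.eq.2 ha
      rwa [QuotientGroup.out_eq', QuotientGroup.out_eq', eq_comm] at this
    subst hqq
    rw [inv_mul_cancel, inv_one, one_mul, mul_one] at h'
    obtain ⟨h1, h2⟩ := S.mul_injective h'
    rw [h1, h2]
  have h1 : (1 : G) ∉ T.image F := by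
    rw [Finset.mem_image]
    rintro ⟨⟨q, x, v⟩, hq, h⟩
    simp only [T, Finset.mem_product, Finset.mem_erase] at hq
    apply hq.2.1.1
    apply Subtype.ext
    exact S.mul_eq_one x.2 v.2 (conj_eq_one_iff.1 h)
  have h2 : (N.index : ℝ) * (∑ x ∈ (Finset.univ : Finset P).erase 1, ∑ v : V, ‖f (x * v)‖ ^ 2) =
      ∑ g ∈ T.image F, ‖f g‖ ^ 2 := by
    rw [Finset.sum_image hinj, Finset.sum_product]
    simp only [F, Finset.sum_product]
    rw [Finset.sum_congr rfl fun q _ => Finset.sum_congr rfl fun (x : P) _ =>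
      Finset.sum_congr rfl fun (v : V) _ => show ‖f (q.out * ((x : G) * v) * q.out⁻¹)‖ ^ 2 =
        ‖f ((x : G) * v)‖ ^ 2 by rw [hf _ _]]
    rw [Finset.sum_const, Finset.card_univ, nsmul_eq_mul, Subgroup.index,
      Nat.card_eq_fintype_card]
  rw [h2, ← Finset.sum_insert (f := fun g => ‖f g‖ ^ 2) h1]
  exact Finset.sum_le_sum_of_subset_of_nonneg (Finset.subset_univ _) fun _ _ _ => sq_nonneg _

theorem sum_erase_one_eq [DecidableEq P] (S : Setting P V) (f : G → ℂ) :
    ∑ x ∈ (Finset.univ : Finset P).erase 1, ∑ v : V, ‖f (x * v)‖ ^ 2 =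
      ∑ v : V, ((Nat.card P : ℝ) * ∑ μ : IrrCharacter P, ‖eig P f μ (v : G)‖ ^ 2 -
        ‖f (v : G)‖ ^ 2) := by
  rw [Finset.sum_comm]
  refine Finset.sum_congr rfl fun v _ => ?_
  rw [← eig_parseval S.comm f (v : G), ← Finset.add_sum_erase _ _ (Finset.mem_univ (1 : P))]
  simp

open scoped Classical in
/-- The eigencharacters of `P` occurring in `ψ`. -/
noncomputable def supp (P : Subgroup G) [Fintype P] (ψ : G → ℂ) : Finset (IrrCharacter P) :=
  Finset.univ.filter fun μ => eig P ψ μ 1 ≠ 0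

theorem mem_supp {ψ : G → ℂ} {μ : IrrCharacter P} : μ ∈ supp P ψ ↔ eig P ψ μ 1 ≠ 0 := by
  classical
  simp [supp]

theorem Setting.eq_sum_supp (S : Setting P V) {ψ : G → ℂ} (hψ : IsCharacter G ψ) {v : G}
    (hv : v ∈ V) : ψ v = ∑ μ ∈ supp P ψ, eig P ψ μ v := by
  rw [eig_expansion_one S.comm ψ v]
  refine (Finset.sum_subset (Finset.subset_univ _) fun μ _ hμ => ?_).symm
  rw [mem_supp, not_not] at hμ
  exact eig_eq_zero S.comm V S.commV hψ μ hμ hv

theorem card_supp_le (hP : ∀ a ∈ P, ∀ b ∈ P, a * b = b * a) {ψ : G → ℂ} (hψ : IsCharacter G ψ) :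
    (supp P ψ).card ≤ charDegree ψ := by
  have h := eig_expansion_one hP ψ 1
  choose m hm using fun μ : IrrCharacter P => exists_nat_mult (P := P) hψ μ
  simp only [hm, ← charDegree_cast hψ] at h
  have h' : charDegree ψ = ∑ μ, m μ := by exact_mod_cast h
  rw [h', Finset.card_eq_sum_ones]
  refine le_trans (Finset.sum_le_sum fun μ hμ => ?_) (Finset.sum_le_sum_of_subset (Finset.subset_univ _))
  rw [mem_supp, hm, Nat.cast_ne_zero] at hμ
  exact Nat.one_le_iff_ne_zero.2 hμ

theorem Setting.index_mul (S : Setting P V) :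
    Nat.card G = (Subgroup.normalizer (P : Set G)).index *
      Nat.card (P.normalizerMonoidHom).range * Nat.card P * Nat.card V := by
  have hle : Subgroup.centralizer (P : Set G) ≤ Subgroup.normalizer (P : Set G) := by
    intro a ha
    refine mem_normalizer_of_conj_le fun y hy => ?_
    show a * y * a⁻¹ ∈ P
    rw [← Subgroup.mem_centralizer_iff.1 ha y hy, mul_inv_cancel_right]
    exact hy
  have h := Subgroup.card_mul_index P.normalizerMonoidHom.ker
  rw [Subgroup.index_ker, Subgroup.normalizerMonoidHom_ker,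
    Nat.card_congr (Subgroup.subgroupOfEquivOfLe hle).toEquiv, S.cardC] at h
  rw [← Subgroup.index_mul_card (Subgroup.normalizer (P : Set G)), ← h]
  ring

/-- First inequality. -/
theorem Setting.norm_bound [DecidableEq P] (S : Setting P V) (ψ : IrrCharacter G)
    (hm : (supp P (ψ : G → ℂ)).card ≤ Nat.card P) :
    ((Nat.card P : ℝ) - (supp P (ψ : G → ℂ)).card) * (supp P (ψ : G → ℂ)).card <
      (Nat.card (P.normalizerMonoidHom).range : ℝ) * Nat.card P := by
  have hψ := isCharacter_coe ψ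
  set L := supp P (ψ : G → ℂ)
  have hm' : (L.card : ℝ) ≤ Nat.card P := by exact_mod_cast hm
  have h1 : ((Nat.card P : ℝ) - L.card) * L.card * Nat.card V ≤
      ∑ x ∈ (Finset.univ : Finset P).erase 1, ∑ v : V, ‖(ψ : G → ℂ) (x * v)‖ ^ 2 := by
    rw [sum_erase_one_eq S]
    calc ((Nat.card P : ℝ) - L.card) * L.card * Nat.card V
        ≤ ((Nat.card P : ℝ) - L.card) * ∑ μ ∈ L, ∑ v : V, ‖eig P (ψ : G → ℂ) μ (v : G)‖ ^ 2 := by
          rw [mul_assoc, ← nsmul_eq_mul, ← Finset.sum_const]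
          exact mul_le_mul_of_nonneg_left (Finset.sum_le_sum fun μ hμ =>
            card_le_sum_norm_eig S.comm V S.commV hψ μ (mem_supp.1 hμ)) (sub_nonneg.2 hm')
      _ ≤ _ := by
          rw [Finset.sum_comm, Finset.mul_sum]
          refine Finset.sum_le_sum fun v _ => ?_
          have e1 : ‖(ψ : G → ℂ) (v : G)‖ ^ 2 ≤
              L.card * ∑ μ ∈ L, ‖eig P (ψ : G → ℂ) μ (v : G)‖ ^ 2 := by
            rw [S.eq_sum_supp hψ v.2]
            exact (pow_le_pow_left₀ (norm_nonneg _) (norm_sum_le _ _) 2).trans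
              sq_sum_le_card_mul_sum_sq
          have e2 : ∑ μ ∈ L, ‖eig P (ψ : G → ℂ) μ (v : G)‖ ^ 2 ≤
              ∑ μ : IrrCharacter P, ‖eig P (ψ : G → ℂ) μ (v : G)‖ ^ 2 :=
            Finset.sum_le_sum_of_subset_of_nonneg (Finset.subset_univ _) fun _ _ _ => sq_nonneg _
          nlinarith [mul_le_mul_of_nonneg_left e2 (Nat.cast_nonneg (α := ℝ) (Nat.card P))]
  have h2 := S.ti_sum_le (isClassFunction_coe ψ)
  have h3 : (∑ g : G, ‖(ψ : G → ℂ) g‖ ^ 2) = (Nat.card G : ℝ) := by
    apply Complex.ofReal_injective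
    rw [norm_sq_sum_eq, classInner_self, mul_one, Complex.ofReal_natCast]
  rw [h3, S.index_mul] at h2
  push_cast at h2
  have hpos : (0 : ℝ) < ‖(ψ : G → ℂ) 1‖ ^ 2 := pow_pos (norm_pos_iff.2 (map_one_ne_zero ψ)) 2
  have hidx : (0 : ℝ) < (Subgroup.normalizer (P : Set G)).index := by
    exact_mod_cast Nat.pos_of_ne_zero Subgroup.index_ne_zero_of_finite
  have hV : (0 : ℝ) < Nat.card V := by exact_mod_cast Nat.card_pos
  by_contra hc
  push Not at hc
  nlinarith [mul_le_mul_of_nonneg_left h1 hidx.le, mul_le_mul_of_nonneg_left hc (mul_pos hidx hV).le]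

theorem cauchy_weighted (a B Q s K : ℝ) (hs : 0 < s) (hK : 0 < K) (hBQ : B ^ 2 ≤ K * Q) :
    (a + B) ^ 2 ≤ (s + K) * (a ^ 2 / s + Q) := by
  have h1 : (a + B) ^ 2 ≤ (s + K) * (a ^ 2 / s + B ^ 2 / K) := by
    rw [div_add_div _ _ hs.ne' hK.ne', mul_div_assoc', le_div_iff₀ (mul_pos hs hK)]
    nlinarith [sq_nonneg (a * K - B * s)]
  refine h1.trans (mul_le_mul_of_nonneg_left (add_le_add le_rfl ?_) (by linarith))
  rw [div_le_iff₀ hK]
  linarith

theorem key_inequality {e p K : ℝ} (he : 2 ≤ e) (hp : e ^ 2 + e + 1 ≤ p) (hK1 : e ≤ K)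
    (hK2 : K ≤ e ^ 2 - e) :
    e * p * (1 + (1 / e) ^ 2) ≤ p * ((1 + 1 / e) ^ 2 + K) - (1 + 1 / e + K) ^ 2 := by
  have he0 : (0 : ℝ) < e := by linarith
  suffices h : 0 ≤ p * ((e + 1) ^ 2 + K * e ^ 2 - e ^ 3 - e) - (e + 1 + K * e) ^ 2 by
    have h' : (p * ((1 + 1 / e) ^ 2 + K) - (1 + 1 / e + K) ^ 2 - e * p * (1 + (1 / e) ^ 2)) =
        (p * ((e + 1) ^ 2 + K * e ^ 2 - e ^ 3 - e) - (e + 1 + K * e) ^ 2) / e ^ 2 := by
      field_simp
      ring
    nlinarith [div_nonneg h (sq_nonneg e)]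
  have hc : 0 ≤ (e + 1) ^ 2 + K * e ^ 2 - e ^ 3 - e := by nlinarith
  have hbase : 0 ≤ (e ^ 2 + e + 1) * ((e + 1) ^ 2 + K * e ^ 2 - e ^ 3 - e) - (e + 1 + K * e) ^ 2 := by
    have hid : (e ^ 2 + e + 1) * ((e + 1) ^ 2 + K * e ^ 2 - e ^ 3 - e) - (e + 1 + K * e) ^ 2 =
        e ^ 2 * ((K - e) * (e ^ 2 - e - 1 - 2 / e - (K - e))) := by
      field_simp
      ring
    rw [hid]
    refine mul_nonneg (sq_nonneg _) (mul_nonneg (by linarith) ?_)
    have : 2 / e ≤ 1 := by rw [div_le_one he0]; exact he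
    nlinarith
  nlinarith [mul_le_mul_of_nonneg_right hp hc]

/-- Second inequality: a non-principal irreducible character cannot contain both the trivial
character of `P × V` and few non-trivial eigencharacters. -/
theorem Setting.no_trivial_and_few [DecidableEq P] (S : Setting P V) (φ : IrrCharacter G)
    (hφ : φ ≠ oneChar G) (h1 : ∑ v : V, ∑ x : P, (φ : G → ℂ) (x * v) ≠ 0)
    (L' : Finset (IrrCharacter P)) (hL' : L' ⊆ supp P (φ : G → ℂ)) (hone : oneChar P ∉ L')
    (hsub : supp P (φ : G → ℂ) ⊆ insert (oneChar P) L')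
    (he : 2 ≤ Nat.card (P.normalizerMonoidHom).range)
    (hp : Nat.card (P.normalizerMonoidHom).range ^ 2 + Nat.card (P.normalizerMonoidHom).range + 1 ≤
      Nat.card P)
    (hK1 : Nat.card (P.normalizerMonoidHom).range ≤ L'.card)
    (hK2 : L'.card + Nat.card (P.normalizerMonoidHom).range ≤
      Nat.card (P.normalizerMonoidHom).range ^ 2) : False := by
  classical
  set e : ℝ := (Nat.card (P.normalizerMonoidHom).range : ℝ) with he_def
  set p : ℝ := (Nat.card P : ℝ) with hp_def
  set K : ℝ := (L'.card : ℝ) with hK_def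
  have he2 : (2 : ℝ) ≤ e := by rw [he_def]; exact_mod_cast he
  have hp2 : e ^ 2 + e + 1 ≤ p := by rw [he_def, hp_def]; exact_mod_cast hp
  have hKe : e ≤ K := by rw [he_def, hK_def]; exact_mod_cast hK1
  have hKe2 : K ≤ e ^ 2 - e := by
    rw [le_sub_iff_add_le, he_def, hK_def]; exact_mod_cast hK2
  have he0 : 0 < e := by linarith
  set t : ℝ := 1 / e with ht
  set s : ℝ := 1 + t with hs
  have ht0 : 0 < t := by positivity
  have hs0 : 0 < s := by linarith
  have hψ := isCharacter_coe φ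
  set f : G → ℂ := fun g => (φ : G → ℂ) g + (t : ℂ) with hf
  have hfc : IsClassFunction G f := fun a b => by
    simp only [hf, isClassFunction_coe φ a b]
  have heig : ∀ (μ : IrrCharacter P) (g : G), eig P f μ g = eig P (φ : G → ℂ) μ g +
      (if μ = oneChar P then (t : ℂ) else 0) := by
    intro μ g
    have e1 : (fun x : P => f (x * g)) =
        (fun x : P => (φ : G → ℂ) (x * g)) + (t : ℂ) • (oneChar P : P → ℂ) := by
      funext x; simp [hf]
    rw [eig_def, eig_def, e1, classInner_add_left, classInner_smul_left, classInner_irr]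
    by_cases hμ : μ = oneChar P
    · rw [if_pos hμ.symm, if_pos hμ, mul_one]
    · rw [if_neg (fun h => hμ h.symm), if_neg hμ, mul_zero]
  have hsum1 := card_le_re_sum_eig S.comm V S.commV hψ h1
  have hone_mem : eig P (φ : G → ℂ) (oneChar P) 1 ≠ 0 := by
    intro h0
    rw [Finset.sum_eq_zero (fun v _ => eig_eq_zero S.comm V S.commV hψ _ h0 v.2),
      Complex.zero_re] at hsum1
    have : (0 : ℝ) < Nat.card V := by exact_mod_cast Nat.card_pos
    linarith
  -- the trivial coefficient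
  have hA : (Nat.card V : ℝ) * s ^ 2 ≤ ∑ v : V, ‖eig P f (oneChar P) (v : G)‖ ^ 2 := by
    have h2 := card_le_sum_norm_eig S.comm V S.commV hψ (oneChar P) hone_mem
    have e1 : ∀ v : V, ‖eig P f (oneChar P) (v : G)‖ ^ 2 =
        ‖eig P (φ : G → ℂ) (oneChar P) (v : G)‖ ^ 2 +
          2 * t * (eig P (φ : G → ℂ) (oneChar P) (v : G)).re + t ^ 2 := by
      intro v
      rw [heig, if_pos rfl, Complex.sq_norm, Complex.sq_norm, Complex.normSq_apply,
        Complex.normSq_apply, Complex.add_re, Complex.add_im, Complex.ofReal_re, Complex.ofReal_im]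
      ring
    simp only [e1, Finset.sum_add_distrib, ← Finset.mul_sum, Finset.sum_const, Finset.card_univ,
      nsmul_eq_mul, ← Nat.card_eq_fintype_card]
    rw [Complex.re_sum] at hsum1
    nlinarith [mul_le_mul_of_nonneg_left hsum1 (by linarith : (0:ℝ) ≤ 2 * t)]
  have hB : (Nat.card V : ℝ) * K ≤ ∑ v : V, ∑ μ ∈ L', ‖eig P f μ (v : G)‖ ^ 2 := by
    rw [Finset.sum_comm, hK_def, mul_comm, ← nsmul_eq_mul, ← Finset.sum_const]
    refine Finset.sum_le_sum fun μ hμ => ?_
    have hne : μ ≠ oneChar P := fun h => hone (h ▸ hμ)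
    simp only [heig, if_neg hne, add_zero]
    exact card_le_sum_norm_eig S.comm V S.commV hψ μ (mem_supp.1 (hL' hμ))
  -- the pointwise bound
  have hc1 : 0 ≤ p - 1 - K / s := by
    have : K / s ≤ K := div_le_self (by linarith) (by linarith)
    linarith
  have hc2 : 0 ≤ p - s - K := by
    have : t ≤ 1 := by rw [ht, div_le_one he0]; linarith
    linarith
  have hpt : ∀ v : V, (p - 1 - K / s) * ‖eig P f (oneChar P) (v : G)‖ ^ 2 +
      (p - s - K) * ∑ μ ∈ L', ‖eig P f μ (v : G)‖ ^ 2 ≤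
      p * ∑ μ : IrrCharacter P, ‖eig P f μ (v : G)‖ ^ 2 - ‖f (v : G)‖ ^ 2 := by
    intro v
    have e1 : f (v : G) = eig P f (oneChar P) (v : G) + ∑ μ ∈ L', eig P f μ (v : G) := by
      have h2 : (φ : G → ℂ) (v : G) = eig P (φ : G → ℂ) (oneChar P) (v : G) +
          ∑ μ ∈ L', eig P (φ : G → ℂ) μ (v : G) := by
        rw [S.eq_sum_supp hψ v.2,
          ← Finset.sum_insert (f := fun μ => eig P (φ : G → ℂ) μ (v : G)) hone]
        refine Finset.sum_subset hsub fun μ hμ hμ' => ?_
        rw [mem_supp, not_not] at hμ'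
        exact eig_eq_zero S.comm V S.commV hψ μ hμ' v.2
      have h3 : ∑ μ ∈ L', eig P f μ (v : G) = ∑ μ ∈ L', eig P (φ : G → ℂ) μ (v : G) :=
        Finset.sum_congr rfl fun μ hμ => by
          rw [heig, if_neg (fun h => hone (by rw [← h]; exact hμ)), add_zero]
      rw [h3, heig, if_pos rfl]
      show (φ : G → ℂ) (v : G) + (t : ℂ) = _
      rw [h2]
      ring
    set a := ‖eig P f (oneChar P) (v : G)‖
    set Q := ∑ μ ∈ L', ‖eig P f μ (v : G)‖ ^ 2
    have h4 : ‖f (v : G)‖ ^ 2 ≤ (s + K) * (a ^ 2 / s + Q) := by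
      rw [e1]
      refine (pow_le_pow_left₀ (norm_nonneg _)
        ((norm_add_le _ _).trans (add_le_add le_rfl (norm_sum_le _ _))) 2).trans ?_
      exact cauchy_weighted _ _ _ _ _ hs0 (by linarith) sq_sum_le_card_mul_sum_sq
    have h5 : a ^ 2 + Q ≤ ∑ μ : IrrCharacter P, ‖eig P f μ (v : G)‖ ^ 2 := by
      rw [← Finset.sum_insert (f := fun μ => ‖eig P f μ (v : G)‖ ^ 2) hone]
      exact Finset.sum_le_sum_of_subset_of_nonneg (Finset.subset_univ _) fun _ _ _ => sq_nonneg _
    have h6 : (s + K) * (a ^ 2 / s + Q) = a ^ 2 + K / s * a ^ 2 + (s + K) * Q := by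
      field_simp
    nlinarith [mul_le_mul_of_nonneg_left h5 (by linarith : (0:ℝ) ≤ p)]
  have hlow : (Nat.card V : ℝ) * (p * (s ^ 2 + K) - (s + K) ^ 2) ≤
      ∑ x ∈ (Finset.univ : Finset P).erase 1, ∑ v : V, ‖f (x * v)‖ ^ 2 := by
    rw [sum_erase_one_eq S]
    refine le_trans ?_ (Finset.sum_le_sum fun v _ => hpt v)
    rw [Finset.sum_add_distrib, ← Finset.mul_sum, ← Finset.mul_sum]
    have h6 : (Nat.card V : ℝ) * (p * (s ^ 2 + K) - (s + K) ^ 2) =
        (p - 1 - K / s) * ((Nat.card V : ℝ) * s ^ 2) + (p - s - K) * ((Nat.card V : ℝ) * K) := by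
      field_simp
      ring
    rw [h6]
    exact add_le_add (mul_le_mul_of_nonneg_left hA hc1) (mul_le_mul_of_nonneg_left hB hc2)
  have htot : (∑ g : G, ‖f g‖ ^ 2) = (Nat.card G : ℝ) * (1 + t ^ 2) := by
    apply Complex.ofReal_injective
    rw [norm_sq_sum_eq]
    have e1 : f = (φ : G → ℂ) + (t : ℂ) • (oneChar G : G → ℂ) := by funext g; simp [hf]
    have e2 : classInner f f = 1 + (t : ℂ) ^ 2 := by
      rw [e1, classInner_add_left, classInner_smul_left]
      have c1 : classInner (φ : G → ℂ) ((φ : G → ℂ) + (t : ℂ) • (oneChar G : G → ℂ)) = 1 := by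
        rw [← classInner_conj_symm, classInner_add_left, classInner_smul_left, classInner_self,
          classInner_of_ne hφ.symm, mul_zero, add_zero, map_one]
      have c2 : classInner (oneChar G : G → ℂ) ((φ : G → ℂ) + (t : ℂ) • (oneChar G : G → ℂ)) =
          (t : ℂ) := by
        rw [← classInner_conj_symm, classInner_add_left, classInner_smul_left, classInner_self,
          classInner_of_ne hφ, zero_add, mul_one, Complex.conj_ofReal]
      rw [c1, c2]
      ring
    rw [e2]
    push_cast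
    ring
  have h2 := S.ti_sum_le hfc
  rw [htot, S.index_mul] at h2
  push_cast at h2
  have hkey := key_inequality he2 hp2 hKe hKe2
  have hpos : (0 : ℝ) < ‖f 1‖ ^ 2 := by
    refine pow_pos (norm_pos_iff.2 ?_) 2
    intro h0
    simp only [hf, ← coe_charDegree] at h0
    have := congrArg Complex.re h0
    simp at this
    have : (0 : ℝ) ≤ charDegree (φ : G → ℂ) := Nat.cast_nonneg _
    linarith
  have hidx : (0 : ℝ) ≤ ((Subgroup.normalizer (P : Set G)).index : ℝ) := Nat.cast_nonneg _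
  have hV : (0 : ℝ) ≤ (Nat.card V : ℝ) := Nat.cast_nonneg _
  rw [← he_def, ← hp_def] at h2
  nlinarith [mul_le_mul_of_nonneg_left hlow hidx,
    mul_le_mul_of_nonneg_left hkey (mul_nonneg hidx hV)]

end CfsgLib.SmallDegreeTI
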