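import Cfsg.Agent.Chars.SmallDegreeTI.Main
import Mathlib.GroupTheory.SchurZassenhaus
import Mathlib.GroupTheory.Sylow

/-!
# Small degrees with uniform centralizers: the conclusion
-/

set_option autoImplicit false

namespace CfsgLib.SmallDegreeTI

open Cfsg CfsgLib.Chars
open scoped ComplexConjugate

variable {G : Type*} [Group G] [Fintype G] {P V : Subgroup G} [Fintype P] [Fintype V]

theorem autOf_apply (n : Subgroup.normalizer (P : Set G)) (x : P) :
    ((P.normalizerMonoidHom n x : P) : G) = (n : G) * x * (n : G)⁻¹ := rfl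

theorem Setting.fixed_point_free (S : Setting P V) {α : MulAut P}
    (hα : α ∈ (P.normalizerMonoidHom).range) {x : P} (hx : x ≠ 1) (h : α x = x) : α = 1 := by
  obtain ⟨n, rfl⟩ := hα
  rw [← MonoidHom.mem_ker, Subgroup.normalizerMonoidHom_ker, Subgroup.mem_subgroupOf,
    ← S.star _ x.2 (fun e => hx (Subtype.ext e)), Subgroup.mem_centralizer_singleton_iff]
  exact mul_inv_eq_iff_eq_mul.1 ((autOf_apply n x).symm.trans (congrArg Subtype.val h))

/-- An automorphism moves an irreducible character. -/
noncomputable def pullback (α : MulAut P) (μ : IrrCharacter P) : IrrCharacter P :=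
  ⟨fun x => (μ : P → ℂ) (α x), isIrrCharacter_comp μ.2 α.toMonoidHom α.surjective⟩

theorem pullback_apply (α : MulAut P) (μ : IrrCharacter P) (x : P) :
    (pullback α μ : P → ℂ) x = (μ : P → ℂ) (α x) := rfl

theorem eig_pullback {ψ : G → ℂ} (hψ : IsClassFunction G ψ) {α : MulAut P}
    (hα : α ∈ (P.normalizerMonoidHom).range) (μ : IrrCharacter P) :
    eig P ψ (pullback α μ) 1 = eig P ψ μ 1 := by
  obtain ⟨n, rfl⟩ := hα
  rw [eig_one, eig_one, classInner, classInner]
  congr 1
  refine Fintype.sum_equiv (P.normalizerMonoidHom n).toEquiv _ _ fun x => ?_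
  show ψ (x : G) * _ = ψ ((n : G) * x * (n : G)⁻¹) * _
  rw [hψ (x : G) (n : G)]
  rfl

theorem Setting.pullback_injective (S : Setting P V) {μ : IrrCharacter P} (hμ : μ ≠ oneChar P) :
    Function.Injective (fun α : (P.normalizerMonoidHom).range => pullback (α : MulAut P) μ) := by
  intro α β h
  by_contra hne
  have hγ : ((α : MulAut P) * (β : MulAut P)⁻¹) ∈ (P.normalizerMonoidHom).range :=
    mul_mem α.2 (inv_mem β.2)
  set γ : MulAut P := (α : MulAut P) * (β : MulAut P)⁻¹ with hγdef
  have hγ1 : γ ≠ 1 := fun e => hne (Subtype.ext (mul_inv_eq_one.1 e))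
  have hfix : ∀ x : P, (μ : P → ℂ) (γ x) = (μ : P → ℂ) x := by
    intro x
    have := congrFun (congrArg Subtype.val h) ((β : MulAut P)⁻¹ x)
    simp only [pullback_apply, MulAut.apply_inv_self] at this
    simpa [hγdef] using this
  obtain ⟨l, rfl⟩ := exists_hom S.comm μ
  apply hμ
  rw [linChar_eq_oneChar_iff]
  refine MonoidHom.ext fun y => ?_
  let d : P → P := fun x => γ x * x⁻¹
  have hd : Function.Injective d := by
    intro a b e
    by_contra hab
    apply hγ1
    refine S.fixed_point_free hγ (x := b⁻¹ * a) (fun e1 => hab (inv_mul_eq_one.1 e1).symm) ?_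
    rw [map_mul, map_inv]
    have e' : γ a * a⁻¹ = γ b * b⁻¹ := e
    haveI := isMulComm S.comm
    have e2 : (γ b)⁻¹ * γ a * (a⁻¹ * b) = 1 := by
      calc (γ b)⁻¹ * γ a * (a⁻¹ * b) = (γ b)⁻¹ * (γ a * a⁻¹) * b := by group
        _ = (γ b)⁻¹ * (γ b * b⁻¹) * b := by rw [e']
        _ = 1 := by group
    rw [mul_eq_one_iff_eq_inv, mul_inv_rev, inv_inv] at e2
    exact e2
  obtain ⟨x, hx⟩ := (Finite.injective_iff_surjective.1 hd) y
  rw [← hx]
  show l (γ x * x⁻¹) = 1
  rw [map_mul, map_inv, Units.ext (show ((l (γ x) : ℂˣ) : ℂ) = (l x : ℂˣ) from hfix x),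
    mul_inv_cancel]

theorem Setting.card_range_le (S : Setting P V) [DecidableEq (IrrCharacter P)] {ψ : G → ℂ}
    (hψ : IsClassFunction G ψ) {μ : IrrCharacter P} (hμ : μ ∈ supp P ψ) (hμ1 : μ ≠ oneChar P) :
    Nat.card (P.normalizerMonoidHom).range ≤ ((supp P ψ).erase (oneChar P)).card := by
  rw [← Nat.card_eq_finsetCard]
  refine Nat.card_le_card_of_injective (fun α => ⟨pullback (α : MulAut P) μ, ?_⟩)
    (fun α β h => S.pullback_injective hμ1 (congrArg Subtype.val h))
  rw [Finset.mem_erase, mem_supp, eig_pullback hψ α.2]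
  refine ⟨fun h => hμ1 ?_, mem_supp.1 hμ⟩
  apply Subtype.ext
  funext x
  have := congrFun (congrArg Subtype.val h) ((α : MulAut P)⁻¹ x)
  simpa [pullback_apply] using this

theorem Setting.card_range_dvd (S : Setting P V) :
    Nat.card (P.normalizerMonoidHom).range ∣ Nat.card P - 1 := by
  classical
  set R := (P.normalizerMonoidHom).range
  letI : MulAction R {x : P // x ≠ 1} :=
    { smul := fun α x => ⟨(α : MulAut P) x.1, fun h => x.2 (by simpa using h)⟩
      one_smul := fun x => Subtype.ext rfl
      mul_smul := fun α β x => Subtype.ext rfl }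
  haveI : Fintype R := Fintype.ofFinite _
  have hcard : Nat.card {x : P // x ≠ 1} = Nat.card P - 1 := by
    rw [Nat.card_eq_fintype_card, Fintype.card_subtype_compl, Nat.card_eq_fintype_card]
    simp
  rw [← hcard, Nat.card_congr (MulAction.selfEquivSigmaOrbits R {x : P // x ≠ 1}), Nat.card_sigma]
  refine Finset.dvd_sum fun ω _ => ?_
  rw [Nat.card_coe_set_eq, ← MulAction.index_stabilizer]
  have : MulAction.stabilizer R (Quotient.out ω) = ⊥ := by
    rw [eq_bot_iff]
    intro α hα
    rw [Subgroup.mem_bot]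
    exact Subtype.ext (S.fixed_point_free α.2 (Quotient.out ω).2
      (congrArg Subtype.val (MulAction.mem_stabilizer_iff.1 hα)))
  rw [this, Subgroup.index_bot]

theorem supp_subset_one_ker (hP : ∀ a ∈ P, ∀ b ∈ P, a * b = b * a) {ψ : G → ℂ}
    (hψ : IsCharacter G ψ) (h : ∀ μ ∈ supp P ψ, μ = oneChar P) : P ≤ charKer ψ := by
  rw [le_charKer_iff hψ]
  intro x hx
  have e : ∀ y : P, ψ y = eig P ψ (oneChar P) 1 := by
    intro y
    have := eig_expansion hP ψ 1 y
    rw [mul_one] at this
    rw [this, Finset.sum_eq_single (oneChar P)]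
    · simp
    · intro μ _ hμ
      by_cases hs : μ ∈ supp P ψ
      · exact absurd (h μ hs) hμ
      · rw [mem_supp, not_not] at hs
        rw [hs, zero_mul]
    · exact fun hh => absurd (Finset.mem_univ _) hh
  exact (e ⟨x, hx⟩).trans (e 1).symm

theorem eq_oneChar_of_ker_top (φ : IrrCharacter G) (h : charKer (φ : G → ℂ) = ⊤) :
    φ = oneChar G := by
  by_contra hne
  have h0 := classInner_of_ne hne
  simp only [classInner, oneChar_apply, map_one, mul_one] at h0
  rw [Finset.sum_congr rfl (fun g _ => map_eq_map_one_of_mem_charKer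
    (f := (φ : G → ℂ)) (g := g) (h ▸ Subgroup.mem_top g)), Finset.sum_const, Finset.card_univ,
    nsmul_eq_mul, ← Nat.card_eq_fintype_card, ← mul_assoc, inv_mul_cancel₀ natCard_ne_zero,
    one_mul] at h0
  exact map_one_ne_zero φ h0

/-- The quotient of two linear characters of `P`. -/
noncomputable def irrQuot (hP : ∀ a ∈ P, ∀ b ∈ P, a * b = b * a) (μ ν : IrrCharacter P) :
    IrrCharacter P :=
  linChar ((exists_hom hP μ).choose * (exists_hom hP ν).choose⁻¹)

theorem irrQuot_apply (hP : ∀ a ∈ P, ∀ b ∈ P, a * b = b * a) (μ ν : IrrCharacter P) (x : P) :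
    (irrQuot hP μ ν : P → ℂ) x = (μ : P → ℂ) x * conj ((ν : P → ℂ) x) := by
  rw [← map_inv_eq_conj (isCharacter_coe ν)]
  conv_rhs => rw [← (exists_hom hP μ).choose_spec, ← (exists_hom hP ν).choose_spec]
  simp [irrQuot]

/-- Main theorem, in the setting with a complement. -/
theorem Setting.degree_one (S : Setting P V)
    (hproper : ∀ K : Subgroup G, K.Normal → P ≤ K → K = ⊤) (χ : IrrCharacter G)
    (hχ : χ ≠ oneChar G) (hd : charDegree (χ : G → ℂ) ^ 2 + 1 < Nat.card P) :
    charDegree (χ : G → ℂ) = 1 ∧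
      Subgroup.normalizer (P : Set G) ≤ Subgroup.centralizer (P : Set G) := by
  classical
  have hψ := isCharacter_coe χ
  have hcl := isClassFunction_coe χ
  set L := supp P (χ : G → ℂ) with hLdef
  set e := Nat.card (P.normalizerMonoidHom).range with he
  set d := charDegree (χ : G → ℂ) with hddef
  have hprin : ∀ φ : IrrCharacter G, (∀ μ ∈ supp P (φ : G → ℂ), μ = oneChar P) → φ = oneChar G :=
    fun φ h => eq_oneChar_of_ker_top φ
      (hproper _ inferInstance (supp_subset_one_ker S.comm (isCharacter_coe φ) h))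
  obtain ⟨μ₀, hμ₀, hμ₀1⟩ : ∃ μ ∈ L, μ ≠ oneChar P := by
    by_contra hne
    push Not at hne
    exact hχ (hprin χ hne)
  have heL : e ≤ (L.erase (oneChar P)).card := S.card_range_le hcl hμ₀ hμ₀1
  have hLd : L.card ≤ d := card_supp_le S.comm hψ
  have he0 : 0 < e := Nat.card_pos
  have hLe : L.card = e := by
    refine le_antisymm ?_ (heL.trans (Finset.card_le_card (Finset.erase_subset _ _)))
    by_contra hlt
    push Not at hlt
    have hLp : L.card ≤ Nat.card P := hLd.trans (by nlinarith)
    have h := S.norm_bound χ hLp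
    rw [← hLdef, ← he] at h
    have h2 : ((d : ℝ) ^ 2 + 1 < (Nat.card P : ℝ)) := by exact_mod_cast hd
    have h3 : (L.card : ℝ) ≤ d := by exact_mod_cast hLd
    have h4 : (e : ℝ) + 1 ≤ L.card := by exact_mod_cast hlt
    have h5 : (0 : ℝ) ≤ L.card := Nat.cast_nonneg _
    have h6 : (L.card : ℝ) ^ 2 ≤ (d : ℝ) ^ 2 := pow_le_pow_left₀ h5 h3 2
    nlinarith [mul_le_mul_of_nonneg_left h4 (Nat.cast_nonneg (α := ℝ) (Nat.card P))]
  have hone : oneChar P ∉ L := fun h => by
    have := Finset.card_erase_add_one h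
    omega
  have hed : e ≤ d := hLe ▸ hLd
  obtain ⟨q, hq⟩ := S.card_range_dvd
  rw [← he] at hq
  have hp : e ^ 2 + e + 1 ≤ Nat.card P := by
    have h1 : e ^ 2 < e * q := by
      have := Nat.pow_le_pow_left hed 2
      omega
    rw [sq] at h1
    have h2 := Nat.lt_of_mul_lt_mul_left h1
    have h3 : e * (e + 1) ≤ e * q := Nat.mul_le_mul_left e h2
    rw [Nat.mul_succ, ← sq] at h3
    omega
  -- the product with the conjugate
  set F : G → ℂ := fun g => (χ : G → ℂ) g * conj ((χ : G → ℂ) g) with hFdef
  have hF : IsCharacter G F := isCharacter_mul hψ (isCharacter_conj hψ)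
  obtain ⟨c, hc, hc'⟩ := exists_nat_coeff hF
  have hc1 : c (oneChar G) = 1 := by
    rw [← Nat.cast_inj (R := ℂ), ← hc', Nat.cast_one]
    conv_rhs => rw [← classInner_self χ]
    simp [classInner, hFdef]
  have hFap : ∀ g, F g = ∑ φ : IrrCharacter G, (c φ : ℂ) * (φ : G → ℂ) g := fun g => by
    rw [congrFun hc g]; simp
  -- eigencharacters of constituents are quotients
  have hquot : ∀ φ : IrrCharacter G, c φ ≠ 0 → ∀ μ ∈ supp P (φ : G → ℂ), μ ≠ oneChar P →
      μ ∈ L.offDiag.image (fun q => irrQuot S.comm q.1 q.2) := by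
    intro φ hφ μ hμ hμ1
    by_contra hnot
    choose m hm using fun φ : IrrCharacter G => exists_nat_mult (P := P) (isCharacter_coe φ) μ
    have hsum : eig P F μ 1 = ∑ φ : IrrCharacter G, (c φ : ℂ) * (m φ : ℂ) := by
      simp only [← hm, eig_one]
      have e1 : (fun x : P => F x) = ∑ φ : IrrCharacter G, (c φ : ℂ) • (fun x : P => (φ : G → ℂ) x) := by
        funext x; simp [hFap]
      rw [e1, classInner_sum_left]
      simp only [classInner_smul_left]
    have hzero : eig P F μ 1 = 0 := by
      rw [eig_one]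
      have e1 : (fun x : P => F x) = ∑ a ∈ L ×ˢ L,
          (eig P (χ : G → ℂ) a.1 1 * conj (eig P (χ : G → ℂ) a.2 1)) •
            (irrQuot S.comm a.1 a.2 : P → ℂ) := by
        funext x
        have e2 : (χ : G → ℂ) x = ∑ a ∈ L, eig P (χ : G → ℂ) a 1 * (a : P → ℂ) x := by
          have := eig_expansion S.comm (χ : G → ℂ) 1 x
          rw [mul_one] at this
          rw [this]
          refine (Finset.sum_subset (Finset.subset_univ _) fun a _ ha => ?_).symm
          rw [hLdef, mem_supp, not_not] at ha
          rw [ha, zero_mul]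
        simp only [hFdef, e2, map_sum, map_mul, Finset.sum_mul_sum, Finset.sum_apply, Pi.smul_apply,
          smul_eq_mul, irrQuot_apply, Finset.sum_product]
        exact Finset.sum_congr rfl fun a _ => Finset.sum_congr rfl fun b _ => by ring
      rw [e1, classInner_sum_left]
      refine Finset.sum_eq_zero fun a ha => ?_
      rw [classInner_smul_left, classInner_of_ne, mul_zero]
      intro h
      apply hnot
      rw [Finset.mem_product] at ha
      refine Finset.mem_image.2 ⟨a, Finset.mem_offDiag.2 ⟨ha.1, ha.2, fun hab => hμ1 ?_⟩, h⟩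
      rw [← h, hab]
      exact Subtype.ext (funext fun x => by simp [irrQuot, mul_inv_cancel])
    rw [hzero] at hsum
    have hsum' : ∑ φ : IrrCharacter G, c φ * m φ = 0 := by exact_mod_cast hsum.symm
    rw [Finset.sum_eq_zero_iff] at hsum'
    rcases Nat.mul_eq_zero.1 (hsum' φ (Finset.mem_univ _)) with h | h
    · exact hφ h
    · rw [mem_supp, hm, h, Nat.cast_zero] at hμ
      exact hμ rfl
  have hoff : (L.offDiag.image (fun q => irrQuot S.comm q.1 q.2)).card ≤ e * e - e := by
    refine Finset.card_image_le.trans ?_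
    rw [Finset.offDiag_card, hLe]
  rcases Nat.lt_or_ge e 2 with he2 | he2
  · have he1 : e = 1 := by omega
    refine ⟨?_, ?_⟩
    · have hempty : L.offDiag.image (fun q => irrQuot S.comm q.1 q.2) = ∅ := by
        rw [← Finset.card_eq_zero]
        rw [he1] at hoff
        omega
      have hall : ∀ φ : IrrCharacter G, φ ≠ oneChar G → c φ = 0 := fun φ hφ => by
        by_contra h0
        refine hφ (hprin φ fun μ hμ => ?_)
        by_contra hμ1
        have := hquot φ h0 μ hμ hμ1
        rw [hempty] at this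
        exact Finset.notMem_empty _ this
      have h1 := hFap 1
      rw [Finset.sum_eq_single (oneChar G)] at h1
      · rw [hFdef, hc1] at h1
        simp only [← coe_charDegree, map_natCast, ← hddef] at h1
        rw [Nat.cast_one, one_mul, charDegree_eq_of_map_one (n := 1) (by simp)] at h1
        have : d * d = 1 := by exact_mod_cast h1
        exact Nat.eq_one_of_mul_eq_one_right this
      · intro φ _ hφ
        rw [hall φ hφ, Nat.cast_zero, zero_mul]
      · exact fun hh => absurd (Finset.mem_univ _) hh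
    · intro a ha
      have hr := Subgroup.eq_bot_of_card_eq (P.normalizerMonoidHom).range (he ▸ he1)
      have h2 : P.normalizerMonoidHom ⟨a, ha⟩ = 1 := by
        rw [← Subgroup.mem_bot, ← hr]
        exact ⟨_, rfl⟩
      rw [← MonoidHom.mem_ker, Subgroup.normalizerMonoidHom_ker, Subgroup.mem_subgroupOf] at h2
      exact h2
  · exfalso
    -- a non-principal constituent that is not orthogonal to the trivial character of `P × V`
    have htot : (Nat.card P : ℝ) * (e * Nat.card V) ≤ (∑ v : V, ∑ x : P, F (x * v)).re := by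
      simp only [hFdef, Complex.mul_conj, Complex.re_sum, Complex.ofReal_re,
        Complex.normSq_eq_norm_sq]
      simp only [eig_parseval S.comm (χ : G → ℂ)]
      rw [← Finset.mul_sum, Finset.sum_comm, ← hLe]
      refine mul_le_mul_of_nonneg_left ?_ (Nat.cast_nonneg _)
      refine le_trans ?_ (Finset.sum_le_sum_of_subset_of_nonneg (Finset.subset_univ L)
        fun _ _ _ => Finset.sum_nonneg fun _ _ => sq_nonneg _)
      rw [← nsmul_eq_mul, ← Finset.sum_const]
      exact Finset.sum_le_sum fun μ hμ =>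
        card_le_sum_norm_eig S.comm V S.commV hψ μ (mem_supp.1 hμ)
    obtain ⟨φ, hφ1, hφc, hφs⟩ : ∃ φ : IrrCharacter G, φ ≠ oneChar G ∧ c φ ≠ 0 ∧
        ∑ v : V, ∑ x : P, (φ : G → ℂ) (x * v) ≠ 0 := by
      by_contra hne
      push Not at hne
      have e1 : ∑ v : V, ∑ x : P, F (x * v) = (Nat.card V : ℂ) * Nat.card P := by
        simp only [hFap]
        rw [Finset.sum_congr rfl (fun v _ => Finset.sum_comm), Finset.sum_comm,
          Finset.sum_eq_single (oneChar G)]
        · simp [hc1]
        · intro φ _ hφ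
          simp only [← Finset.mul_sum]
          by_cases h0 : c φ = 0
          · simp [h0]
          · rw [hne φ hφ h0, mul_zero]
        · exact fun hh => absurd (Finset.mem_univ _) hh
      rw [e1, Complex.mul_re, Complex.natCast_re, Complex.natCast_re, Complex.natCast_im,
        Complex.natCast_im, mul_zero, sub_zero] at htot
      have hVpos : (0 : ℝ) < Nat.card V := by exact_mod_cast Nat.card_pos
      have hPpos : (0 : ℝ) < Nat.card P := by exact_mod_cast Nat.card_pos
      have he2' : (2 : ℝ) ≤ e := by exact_mod_cast he2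
      nlinarith [mul_le_mul_of_nonneg_left he2' (mul_pos hPpos hVpos).le]
    set L' := (supp P (φ : G → ℂ)).erase (oneChar P)
    obtain ⟨μ, hμ, hμ1⟩ : ∃ μ ∈ supp P (φ : G → ℂ), μ ≠ oneChar P := by
      by_contra hne
      push Not at hne
      exact hφ1 (hprin φ hne)
    refine S.no_trivial_and_few φ hφ1 hφs L' (Finset.erase_subset _ _) (Finset.notMem_erase _ _)
      (fun a ha => ?_) he2 hp (S.card_range_le (isClassFunction_coe φ) hμ hμ1) ?_
    · rw [Finset.mem_insert, Finset.mem_erase]
      exact (em (a = oneChar P)).imp id fun h => ⟨h, ha⟩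
    · have h1 : L'.card ≤ e * e - e := le_trans (Finset.card_le_card fun a ha => by
        rw [Finset.mem_erase] at ha
        exact hquot φ hφc a ha.2 ha.1) hoff
      rw [← he, sq]
      have : e ≤ e * e := Nat.le_mul_self e
      omega

/-- The theorem for a Sylow subgroup with uniform centralizers. -/
theorem sylow_degree_one {G : Type*} [Group G] [Fintype G] {p : ℕ} [Fact p.Prime] (P : Sylow p G)
    (hstar : ∀ x ∈ (P : Subgroup G), x ≠ 1 →
      Subgroup.centralizer ({x} : Set G) = Subgroup.centralizer ((P : Subgroup G) : Set G))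
    (hproper : ∀ K : Subgroup G, K.Normal → (P : Subgroup G) ≤ K → K = ⊤)
    (χ : IrrCharacter G) (hχ : χ ≠ oneChar G)
    (hd : charDegree (χ : G → ℂ) ^ 2 + 1 < Nat.card (P : Subgroup G)) :
    charDegree (χ : G → ℂ) = 1 ∧ Subgroup.normalizer ((P : Subgroup G) : Set G) ≤
      Subgroup.centralizer ((P : Subgroup G) : Set G) := by
  classical
  have hcomm : ∀ a ∈ (P : Subgroup G), ∀ b ∈ (P : Subgroup G), a * b = b * a := by
    intro a ha b hb
    by_cases hb1 : b = 1
    · rw [hb1, mul_one, one_mul]
    · have : b ∈ Subgroup.centralizer ((P : Subgroup G) : Set G) := by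
        rw [← hstar b hb hb1, Subgroup.mem_centralizer_singleton_iff]
      exact Subgroup.mem_centralizer_iff.1 this a ha
  set C := Subgroup.centralizer ((P : Subgroup G) : Set G)
  have hPC : (P : Subgroup G) ≤ C := fun a ha =>
    Subgroup.mem_centralizer_iff.2 fun b hb => hcomm b hb a ha
  haveI : ((P : Subgroup G).subgroupOf C).Normal := ⟨fun a ha c => by
    rw [Subgroup.mem_subgroupOf] at ha ⊢
    push_cast
    rw [← Subgroup.mem_centralizer_iff.1 c.2 a ha, mul_inv_cancel_right]
    exact ha⟩
  obtain ⟨n, hn⟩ := IsPGroup.iff_card.1 P.2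
  have hcop : (Nat.card ((P : Subgroup G).subgroupOf C)).Coprime
      ((P : Subgroup G).subgroupOf C).index := by
    rw [Nat.card_congr (Subgroup.subgroupOfEquivOfLe hPC).toEquiv, hn]
    refine Nat.Coprime.pow_left n ((Fact.out : p.Prime).coprime_iff_not_dvd.2 fun hd => ?_)
    apply P.not_dvd_index
    rw [← Subgroup.relIndex_mul_index hPC]
    exact dvd_mul_of_dvd_left hd _
  obtain ⟨V₀, hV₀⟩ := Subgroup.exists_right_complement'_of_coprime hcop
  have hV₀c : Nat.card (V₀.map C.subtype) = Nat.card V₀ :=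
    (Nat.card_congr (Subgroup.equivMapOfInjective V₀ C.subtype C.subtype_injective).toEquiv).symm
  have S : Setting (P : Subgroup G) (V₀.map C.subtype) :=
    { comm := hcomm
      star := hstar
      commV := by
        rintro _ ⟨c, -, rfl⟩ a ha
        exact (Subgroup.mem_centralizer_iff.1 c.2 a ha).symm
      coprime := by
        rw [hV₀c]
        rw [Nat.card_congr (Subgroup.subgroupOfEquivOfLe hPC).toEquiv,
          hV₀.symm.index_eq_card] at hcop
        exact hcop
      cardC := by
        rw [hV₀c, ← hV₀.card_mul_card, Nat.card_congr (Subgroup.subgroupOfEquivOfLe hPC).toEquiv] }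
  haveI : Fintype (V₀.map C.subtype) := Fintype.ofFinite _
  exact S.degree_one hproper χ hχ hd

end CfsgLib.SmallDegreeTI
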